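import Cfsg.Agent.H6.L37.Tab0

set_option autoImplicit false
set_option maxRecDepth 100000
set_option Elab.async false

namespace Cfsg.H6.L37

theorem p0 : allR (ptU img) 0 1600 = true := by decide +kernel

theorem p1 : allR (ptU img) 1600 1600 = true := by decide +kernel

theorem p2 : allR (ptU img) 3200 1600 = true := by decide +kernel

theorem p3 : allR (ptU img) 4800 786 = true := by decide +kernel

theorem q0_0 : allR (ivl img Ws 1 22) 1 21 = true := by decide +kernel

theorem q1_0 : allR (ivl img Ws 22 46) 22 24 = true := by decide +kernel

theorem q2_0 : allR (ivl img Ws 46 70) 46 24 = true := by decide +kernel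

theorem q3_0 : allR (ivl img Ws 70 98) 70 28 = true := by decide +kernel

end Cfsg.H6.L37
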