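import Cfsg.Agent.H6.L37.Tab0

set_option autoImplicit false
set_option maxRecDepth 100000
set_option Elab.async false

namespace Cfsg.H6.L37

theorem q4_0 : allR (ivl img Ws 98 126) 98 28 = true := by decide +kernel

theorem q5_0 : allR (ivl img Ws 126 210) 126 84 = true := by decide +kernel

theorem q6_0 : allR (ivl img Ws 210 294) 210 84 = true := by decide +kernel

theorem q7_0 : allR (ivl img Ws 294 378) 294 84 = true := by decide +kernel

theorem q8_0 : allR (ivl img Ws 378 462) 378 84 = true := by decide +kernel

theorem q9_0 : allR (ivl img Ws 462 546) 462 84 = true := by decide +kernel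

theorem q10_0 : allR (ivl img Ws 546 714) 546 168 = true := by decide +kernel

theorem q11_0 : allR (ivl img Ws 714 882) 714 168 = true := by decide +kernel

end Cfsg.H6.L37
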