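import Cfsg.Agent.H6.L37.Tab0

set_option autoImplicit false
set_option maxRecDepth 100000
set_option Elab.async false

namespace Cfsg.H6.L37

theorem q12_0 : allR (ivl img Ws 882 1050) 882 168 = true := by decide +kernel

theorem q13_0 : allR (ivl img Ws 1050 1218) 1050 168 = true := by decide +kernel

theorem q14_0 : allR (ivl img Ws 1218 1386) 1218 168 = true := by decide +kernel

theorem q15_0 : allR (ivl img Ws 1386 1554) 1386 168 = true := by decide +kernel

theorem q16_0 : allR (ivl img Ws 1554 1722) 1554 168 = true := by decide +kernel

theorem q17_0 : allR (ivl img Ws 1722 1890) 1722 168 = true := by decide +kernel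

theorem q18_0 : allR (ivl img Ws 1890 2058) 1890 168 = true := by decide +kernel

theorem q19_0 : allR (ivl img Ws 2058 2226) 2058 168 = true := by decide +kernel

end Cfsg.H6.L37
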