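import Cfsg.Agent.H6.L37.Tab0

set_option autoImplicit false
set_option maxRecDepth 100000
set_option Elab.async false

namespace Cfsg.H6.L37

theorem q20_0 : allR (ivl img Ws 2226 2394) 2226 168 = true := by decide +kernel

theorem q21_0 : allR (ivl img Ws 2394 2562) 2394 168 = true := by decide +kernel

theorem q22_0 : allR (ivl img Ws 2562 2730) 2562 168 = true := by decide +kernel

theorem q23_0 : allR (ivl img Ws 2730 2898) 2730 168 = true := by decide +kernel

theorem q24_0 : allR (ivl img Ws 2898 3066) 2898 168 = true := by decide +kernel

theorem q25_0 : allR (ivl img Ws 3066 3234) 3066 168 = true := by decide +kernel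

theorem q26_0 : allR (ivl img Ws 3234 3570) 3234 336 = true := by decide +kernel

theorem q27_0 : allR (ivl img Ws 3570 3906) 3570 336 = true := by decide +kernel

end Cfsg.H6.L37
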