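import Cfsg.Agent.H6.L37.Tab0

set_option autoImplicit false
set_option maxRecDepth 100000
set_option Elab.async false

namespace Cfsg.H6.L37

theorem q28_0 : allR (ivl img Ws 3906 4242) 3906 336 = true := by decide +kernel

theorem q29_0 : allR (ivl img Ws 4242 4578) 4242 336 = true := by decide +kernel

theorem q30_0 : allR (ivl img Ws 4578 4914) 4578 336 = true := by decide +kernel

theorem q31_0 : allR (ivl img Ws 4914 5250) 4914 336 = true := by decide +kernel

theorem q32_0 : allR (ivl img Ws 5250 5586) 5250 336 = true := by decide +kernel

end Cfsg.H6.L37
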