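import Cfsg.Agent.H6.More2
import Cfsg.Agent.H6.L37.Main
import Cfsg.Agent.H6.ON.Main
import Cfsg.Agent.H3.SL2
import Cfsg.Prelude.Def_Classical

set_option autoImplicit false
set_option maxRecDepth 100000
set_option Elab.async false

namespace Cfsg.H6.L37

open Matrix

abbrev SL37 : Type := Matrix.SpecialLinearGroup (Fin 3) (ZMod 7)

instance fact7 : Fact (Nat.Prime 7) := ⟨by norm_num⟩

theorem card_SL : Nat.card SL37 = 3 * 1876896 := by
  have h := H3.card_SL_mul (n := Fin 3) (F := ZMod 7)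
  rw [card_GL_field, Nat.card_units, Nat.card_zmod, ZMod.card, Fin.prod_univ_three] at h
  norm_num at h
  show Nat.card (Matrix.SpecialLinearGroup (Fin 3) (ZMod 7)) = _
  rw [Nat.card_eq_fintype_card]
  omega

def rows : List (List ℕ) := [[], [nat_lit 1, nat_lit 512, nat_lit 262144], [nat_lit 1, nat_lit 1024, nat_lit 131072], [nat_lit 262914, nat_lit 262659, nat_lit 132100], [nat_lit 393216, nat_lit 1536, nat_lit 6], [nat_lit 1536, nat_lit 6, nat_lit 393216], [nat_lit 65536, nat_lit 1536, nat_lit 1], [nat_lit 2, nat_lit 512, nat_lit 131072]]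

noncomputable def rw (x : ℕ) : ℕ → ℕ := nthN (nthW rows x)

theorem hA : ∀ x < 8, 1 ≤ x → (matP 7 (Equiv.refl (Fin 3)) (rw x)).det = 1 := by
  simp only [det_fin_three]
  decide +kernel

def mkSL (A : Matrix (Fin 3) (Fin 3) (ZMod 7)) (h : A.det = 1) : SL37 := ⟨A, h⟩

theorem slToMat_inj : Function.Injective (Cfsg.slToMat 3 (ZMod 7)) :=
  fun (a b : SL37) (h : a.1 = b.1) => Subtype.ext h

noncomputable def evM (x : ℕ) : SL37 := if h : 1 ≤ x ∧ x < 8 then mkSL _ (hA x h.2 h.1) else 1

noncomputable def imgM (x p : ℕ) : ℕ := pv 7 (rw x) p 3 3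

theorem hμ : ∀ x, 1 ≤ x → x < 8 → Cfsg.slToMat 3 (ZMod 7) (evM x) = matP 7 (Equiv.refl _) (rw x) := by
  intro x h1 h2
  unfold evM
  rw [dif_pos ⟨h1, h2⟩]
  rfl

theorem hact : MAct (fun x => matP 7 (Equiv.refl (Fin 3)) (rw x)) (decP 7 (Equiv.refl _)) imgM 8 :=
  mact_pv (by norm_num) _ rw

theorem oraM : Oracle evM imgM 8 [1, 256, 65536] :=
  hact.oracle slToMat_inj hμ (decP_basis 7 _) (by decide +kernel)

theorem z_central : evM 7 ∈ Subgroup.center SL37 := by
  rw [Matrix.SpecialLinearGroup.mem_center_iff]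
  refine ⟨2, by decide +kernel, ?_⟩
  show _ = Cfsg.slToMat 3 (ZMod 7) (evM 7)
  rw [hμ 7 (by norm_num) (by norm_num)]
  decide +kernel

theorem quot : Good (fun l => QuotientGroup.mk' (Subgroup.center SL37) (evM l)) 1694364648669696 ∧
    Rels (fun l => QuotientGroup.mk' (Subgroup.center SL37) (evM l)) R := by
  refine quot_of_chk oraM (Z := [[], [7], [7, 7]]) (m := 7) (fun z hz => evL_mem_of_letters ?_)
    (dif_neg (by omega)) (fun l hl => ?_) (by decide +kernel)
  · have : ∀ x ∈ z, x = 7 := by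
      revert z
      decide +kernel
    intro x hx
    rw [this x hx]
    exact z_central
  · by_cases h7 : l = 7
    · rw [h7]; exact z_central
    · rw [evM, dif_neg (by omega)]
      exact Subgroup.one_mem _

theorem iso_psl : Nonempty (Grp ≃* Matrix.ProjectiveSpecialLinearGroup (Fin 3) (ZMod 7)) := by
  have := simple
  obtain ⟨ψ, hψ⟩ := lift quot.1 quot.2
  have h1 : ψ (ev 1) ≠ 1 := by
    rw [hψ]
    intro h
    have h2 := (QuotientGroup.eq_one_iff _).mp h
    rw [← evL_singleton evM 1] at h2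
    exact not_mem_center_of_ne (y := [4]) (hact.ne hμ (p := 1) (i := 2) (by decide +kernel)
      (by decide +kernel) (by decide +kernel)) h2
  refine equiv_of_injective ψ (injective_of_simple ψ h1) ?_
  rw [main.1]
  have : Fact (Nat.Prime 3) := Nat.fact_prime_three
  refine card_quot_center_le z_central (k := 3) ?_ ?_ card_SL.le
  · rw [← evL_singleton evM 7]
    exact hact.ne hμ (w := []) (p := 1) (i := 0) (by decide +kernel) (by decide +kernel)
      (by decide +kernel)
  · rw [← evL_singleton evM 7, ← evL_rp]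
    exact oraM _ (by decide +kernel)

def sg : List (List ℕ) := [[], [1,2], [2,1], [1,3], [1,4], [1,5], [1,6]]

theorem iso_sub : Nonempty (Grp ≃* gen ON.ev (X.map (subst sg))) := by
  have := simple
  obtain ⟨ψ, hψ⟩ := lift (ON.main.2.2.good_evS (σ := sg) (by decide +kernel))
    (ON.main.2.2.rels_evS (by decide +kernel))
  have h := equiv_gen_of_simple ψ hψ hX (w := [1]) (by
    rw [evL_subst]
    exact ON.hφ.ne_one (p := 5) (by decide +kernel))
  rwa [gen_evS] at h

theorem result : ∃ N : Subgroup (gen ON.ev ON.Ws), N.Normal ∧ N.index = 2 ∧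
    Nonempty (N ≃* Matrix.ProjectiveSpecialLinearGroup (Fin 3) (ZMod 7)) := by
  have := ON.finite
  obtain ⟨e⟩ := iso_sub
  obtain ⟨e'⟩ := iso_psl
  obtain ⟨h1, h2, ⟨e''⟩⟩ := index_two_subgroupOf (N := gen ON.ev (X.map (subst sg)))
    (H := gen ON.ev ON.Ws) (gen_le_of_letChk (by decide +kernel)) (a := 1876896)
    (by rw [← Nat.card_congr e.toEquiv, main.1])
    (card_of_index ON.prim.index (by norm_num) ON.main.1)
  exact ⟨_, h1, h2, ⟨(e''.trans e.symm).trans e'⟩⟩

end Cfsg.H6.L37
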